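import Mathlib
import Cfsg.Agent.Lib.Helper44.OElp.Defs

/-!
# OELP (S5988): package [DERE]
-/

set_option autoImplicit false
open scoped MatrixGroups
open Matrix

namespace Cfsg.Agent.Lib.Helper1.OElp

open Cfsg.Agent.Lib.Helper23.OHyp Cfsg.Agent.Lib.Helper44.OElp Module

universe u

theorem cc_even (q r : ℕ) : Even (cc q r) := by
  unfold cc
  split_ifs with h
  · exact h
  · exact even_two_mul _

theorem cc_of_even (q r : ℕ) (h : Even (ordI q r)) : cc q r = ordI q r := by
  unfold cc
  rw [if_pos h]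

theorem pkgDerE_of (hSplit : PkgSplitE.{u}) (hDiv : PkgDivE.{u}) (hSum : PkgSumE.{u}) :
    PkgDerE.{u} := by
  intro F _ _ ι _ _ Q r x hS hPlus m W hm hWm hWnd hWnp hWinv
  obtain ⟨hNdC, hNdN, hPerp, hCompl, hInvN, hW⟩ := hSplit F ι Q r x hS
  obtain ⟨hNdWC, hNdWN, hInvWN, hsup, hdim⟩ := hW W hWinv hWnd
  obtain ⟨hdvdN, hPN⟩ := hDiv F ι Q r x hS (movSp x) le_rfl hInvN hNdN
  obtain ⟨hdvdW, hPWN⟩ := hDiv F ι Q r x hS (W ⊓ movSp x) inf_le_right hInvWN hNdWN
  obtain ⟨j, hj⟩ := hdvdW
  have hle1 : finrank F ↥(W ⊓ movSp x) ≤ finrank F ↥(movSp x) :=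
    Submodule.finrank_mono inf_le_right
  have hle2 : finrank F ↥(W ⊓ fixSp x) ≤ finrank F ↥(fixSp x) :=
    Submodule.finrank_mono inf_le_right
  have hce := cc_even (Fintype.card F) r
  refine ⟨j, by omega, by omega, ?_⟩
  have he : m - cc (Fintype.card F) r * j = finrank F ↥(W ⊓ fixSp x) := by omega
  rw [he]
  unfold Good
  by_cases h0 : finrank F ↥(W ⊓ fixSp x) = 0
  · -- `W = W ⊓ N`
    right
    left
    have hbot : W ⊓ fixSp x = ⊥ := Submodule.finrank_eq_zero.mp h0
    have hWN : W ⊓ movSp x = W := by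
      rw [hbot, bot_sup_eq] at hsup
      exact hsup
    rw [hWN] at hPWN hj
    have h1 : ¬ (Odd (ordI (Fintype.card F) r) ∨
        Even (finrank F ↥W / ordI (Fintype.card F) r)) := fun h => hWnp (hPWN.mpr h)
    rw [not_or] at h1
    have hie : Even (ordI (Fintype.card F) r) := Nat.not_odd_iff_even.mp h1.1
    have hc := cc_of_even _ _ hie
    refine ⟨h0, hie, ?_⟩
    rw [hj, hc] at h1
    have hi0 : ordI (Fintype.card F) r ≠ 0 := by
      intro hz
      apply h1.2
      rw [hz, Nat.div_zero]
      exact ⟨0, rfl⟩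
    rw [Nat.mul_div_cancel_left _ (Nat.pos_of_ne_zero hi0)] at h1
    exact Nat.not_even_iff_odd.mp h1.2
  · by_cases hlt : finrank F ↥(W ⊓ fixSp x) < finrank F ↥(fixSp x)
    · left
      exact ⟨Nat.pos_of_ne_zero h0, hlt⟩
    · right
      right
      have heq : finrank F ↥(W ⊓ fixSp x) = finrank F ↥(fixSp x) := by omega
      have hWC : W ⊓ fixSp x = fixSp x := Submodule.eq_of_le_of_finrank_eq inf_le_right heq
      rw [hWC] at hsup hdim
      have hPerp' : Perp Q (fixSp x) (W ⊓ movSp x) := fun a ha b hb => hPerp a ha b hb.2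
      have hevC : Even (finrank F ↥(fixSp x)) := by
        have h3 : Even (cc (Fintype.card F) r * j) := hce.mul_right j
        have h4 : finrank F ↥(fixSp x) + cc (Fintype.card F) r * j = m := by omega
        rw [← h4] at hm
        exact (Nat.even_add.mp hm).mpr h3
      have hevWN : Even (finrank F ↥(W ⊓ movSp x)) := by
        rw [hj]
        exact hce.mul_right j
      have hevN : Even (finrank F ↥(movSp x)) := by
        obtain ⟨J, hJ⟩ := hdvdN
        rw [hJ]
        exact hce.mul_right J
      have hs1 := (hSum F ι Q hS.nondeg (fixSp x) (W ⊓ movSp x) hNdC hNdWN hPerp').2.2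
        hevC hevWN
      have hs2 := (hSum F ι Q hS.nondeg (fixSp x) (movSp x) hNdC hNdN hPerp).2.2 hevC hevN
      rw [hsup] at hs1
      rw [hCompl.sup_eq_top] at hs2
      have hCN : Plus Q (fixSp x) ↔ Plus Q (movSp x) := hs2.mp hPlus
      have hne : ¬ (Plus Q (fixSp x) ↔ Plus Q (W ⊓ movSp x)) := fun h => hWnp (hs1.mpr h)
      rw [hCN, hPN, hPWN] at hne
      have hio : ¬ Odd (ordI (Fintype.card F) r) := by
        intro hodd
        exact hne ⟨fun _ => Or.inl hodd, fun _ => Or.inl hodd⟩
      have hie : Even (ordI (Fintype.card F) r) := Nat.not_odd_iff_even.mp hio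
      have hc := cc_of_even _ _ hie
      have hi0 : ordI (Fintype.card F) r ≠ 0 := by
        intro hz
        apply hne
        rw [hz, Nat.div_zero, Nat.div_zero]
      refine ⟨heq, hie, ?_⟩
      rw [hj, hc, Nat.mul_div_cancel_left _ (Nat.pos_of_ne_zero hi0)] at hne
      rw [hc]
      rw [Nat.odd_add]
      constructor
      · intro hJodd
        by_contra hjne
        apply hne
        have hjodd : Odd j := Nat.not_even_iff_odd.mp hjne
        constructor
        · rintro (h | h)
          · exact absurd h hio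
          · exact absurd h (Nat.not_even_iff_odd.mpr hJodd)
        · rintro (h | h)
          · exact absurd h hio
          · exact absurd h hjne
      · intro hjev
        by_contra hJne
        apply hne
        have hJev : Even (finrank F ↥(movSp x) / ordI (Fintype.card F) r) :=
          Nat.not_odd_iff_even.mp hJne
        exact ⟨fun _ => Or.inr hjev, fun _ => Or.inr hJev⟩

end Cfsg.Agent.Lib.Helper1.OElp
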