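import Mathlib
import Cfsg.Agent.Lib.Helper44.OElp.Defs

/-!
# OELP (S5988): package [JB]
-/

set_option autoImplicit false
open scoped MatrixGroups
open Matrix

namespace Cfsg.Agent.Lib.Helper1.OElp

open Cfsg.Agent.Lib.Helper23.OHyp Cfsg.Agent.Lib.Helper44.OElp Module

universe u

theorem pkgJB_of (hSplit : PkgSplitE.{u}) (hDiv : PkgDivE.{u}) : PkgJB.{u} := by
  intro F _ _ ι _ _ Q r x hS hx1 hPlus
  obtain ⟨hNdC, hNdN, hPerp, hCompl, hInvN, -⟩ := hSplit F ι Q r x hS
  obtain ⟨hdvd, hPN⟩ := hDiv F ι Q r x hS (movSp x) le_rfl hInvN hNdN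
  have hsum := Submodule.finrank_add_eq_of_isCompl hCompl
  rw [Module.finrank_fintype_fun_eq_card] at hsum
  refine ⟨hdvd, ?_, hsum, ?_⟩
  · rw [Nat.pos_iff_ne_zero]
    intro h0
    have hbot : movSp x = ⊥ := Submodule.finrank_eq_zero.mp h0
    apply hx1
    have h1 : Matrix.toLin' x - 1 = 0 := LinearMap.range_eq_bot.mp hbot
    have h2 : Matrix.toLin' x = Matrix.toLin' (1 : Matrix ι ι F) := by
      rw [Matrix.toLin'_one]
      exact sub_eq_zero.mp h1
    exact Matrix.toLin'.injective h2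
  · intro hC0
    have hbot : fixSp x = ⊥ := Submodule.finrank_eq_zero.mp hC0
    have htop : movSp x = ⊤ := by
      have h3 := hCompl.sup_eq_top
      rw [hbot, bot_sup_eq] at h3
      exact h3
    rw [← hPN, htop]
    exact hPlus

end Cfsg.Agent.Lib.Helper1.OElp
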