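import Mathlib
import Cfsg.Agent.Lib.Helper44.OElp.Defs
import Cfsg.Agent.Lib.Helper1.OHyp.Sum
import Cfsg.Agent.Lib.Helper1.OTS.InvolGeom
import Cfsg.Agent.Lib.Helper52.OElp.Neg1
import Cfsg.Agent.Lib.Helper52.OElp.PlusQE
import Cfsg.Agent.Lib.Helper76.OCls.ClassEven
import Cfsg.Agent.Lib.Helper85.OCls.Sing
import Cfsg.Agent.Lib.Helper76.OCls.Split
import Cfsg.Agent.Lib.Helper8.OCls.AnisoUnique
import Cfsg.Agent.Lib.Helper85.OCls.Aniso

/-!
# OELP (S5988): package [SUME]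

Orthogonal sums of nondegenerate subspaces in ANY characteristic.  For `2 ≠ 0` this is the landed
OHYP package `Helper1.OHyp.pkgSum` (discriminants).  In characteristic two:

* `plus_sup`: the sum of two plus-type spaces is of plus type (any characteristic);
* `plus_right_of_sup`: if `W₁` and `W₁ ⊥ W₂` are of plus type then so is `W₂`
  (transfer of a maximal totally singular subspace);
* `plus_sup_of_not`: the sum of two minus-type spaces is of plus type (classification of the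
  forms over a finite field and the diagonal of the two anisotropic planes).
-/

set_option autoImplicit false

namespace Cfsg.Agent.Lib.Helper1.OElp

open Cfsg.Agent.Lib.Helper23.OHyp Cfsg.Agent.Lib.Helper44.OElp Module
open Cfsg.Agent.Lib.Helper1.OHyp

universe u

section

variable {F : Type u} [Field F] {ι : Type} [Fintype ι] [DecidableEq ι]

/-- the sum of two plus-type spaces is of plus type -/
theorem plus_sup (Q : (ι → F) → F) (W₁ W₂ : Submodule F (ι → F)) (hP : Perp Q W₁ W₂)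
    (hdisj : Disjoint W₁ W₂) (h1 : Plus Q W₁) (h2 : Plus Q W₂) : Plus Q (W₁ ⊔ W₂) := by
  obtain ⟨U₁, hU₁, hts₁, hd₁⟩ := h1
  obtain ⟨U₂, hU₂, hts₂, hd₂⟩ := h2
  refine ⟨U₁ ⊔ U₂, sup_le_sup hU₁ hU₂, ?_, ?_⟩
  · intro w hw
    obtain ⟨a, ha, b, hb, rfl⟩ := Submodule.mem_sup.mp hw
    have h := hP a (hU₁ ha) b (hU₂ hb)
    unfold QuadraticMap.polar at h
    rw [hts₁ a ha, hts₂ b hb] at h
    simpa using h
  · have hdU : Disjoint U₁ U₂ := hdisj.mono hU₁ hU₂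
    have e1 := Submodule.finrank_sup_add_finrank_inf_eq U₁ U₂
    have e2 := Submodule.finrank_sup_add_finrank_inf_eq W₁ W₂
    rw [disjoint_iff.mp hdU, finrank_bot] at e1
    rw [disjoint_iff.mp hdisj, finrank_bot] at e2
    omega

/-- characteristic two: if `W₁` and `W₁ ⊥ W₂` are of plus type, so is `W₂` -/
theorem plus_right_of_sup (Q : (ι → F) → F) (hQ : Cfsg.Geo.IsNondegenerateQuadraticForm Q)
    (h2 : (2 : F) = 0) (W₁ W₂ : Submodule F (ι → F)) (hN1 : Nd Q W₁) (hP : Perp Q W₁ W₂)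
    (hdisj : Disjoint W₁ W₂) (h1 : Plus Q W₁) (h12 : Plus Q (W₁ ⊔ W₂)) : Plus Q W₂ := by
  classical
  obtain ⟨U₁, hU₁, hts₁, hd₁⟩ := h1
  obtain ⟨U, hU, hts, hd⟩ := h12
  have hdim : finrank F ↥(W₁ ⊔ W₂) = finrank F W₁ + finrank F W₂ := by
    have h := Submodule.finrank_sup_add_finrank_inf_eq W₁ W₂
    rw [disjoint_iff.mp hdisj, finrank_bot] at h
    omega
  have hBapp : ∀ a b, polB Q hQ a b = QuadraticMap.polar Q a b := fun a b => rfl
  have hsymm : ∀ a b, polB Q hQ a b = polB Q hQ b a := fun a b => QuadraticMap.polar_comm Q a b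
  have hQadd : ∀ a b, Q (a + b) = Q a + Q b + polB Q hQ a b := by
    intro a b
    rw [hBapp]
    unfold QuadraticMap.polar
    ring
  have hBself : ∀ a, polB Q hQ a a = 0 := by
    intro a
    rw [hBapp, polar_self_eq Q hQ, h2, zero_mul]
  have hiso : ∀ (X : Submodule F (ι → F)), (∀ w ∈ X, Q w = 0) →
      ∀ a ∈ X, ∀ b ∈ X, polB Q hQ a b = 0 := by
    intro X hX a ha b hb
    have h := hQadd a b
    rw [hX _ (X.add_mem ha hb), hX a ha, hX b hb] at h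
    simpa using h.symm
  have hBSapp : ∀ a b : ↥(U ⊔ U₁), ((polB Q hQ).restrict (U ⊔ U₁)) a b =
      polB Q hQ (a : ι → F) b := fun a b => rfl
  have hrefl : ((polB Q hQ).restrict (U ⊔ U₁)).IsRefl := by
    intro a b h
    rw [hBSapp] at h ⊢
    rw [hsymm]
    exact h
  have key := LinearMap.BilinForm.finrank_add_finrank_orthogonal hrefl
    (U₁.comap (U ⊔ U₁).subtype)
  have hXdim : finrank F ↥(U₁.comap (U ⊔ U₁).subtype) = finrank F ↥U₁ :=
    (Submodule.comapSubtypeEquivOfLe (le_sup_right : U₁ ≤ U ⊔ U₁)).finrank_eq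
  have hYle : (U ⊓ U₁).comap (U ⊔ U₁).subtype ≤
      U₁.comap (U ⊔ U₁).subtype ⊓ ((polB Q hQ).restrict (U ⊔ U₁)).orthogonal ⊤ := by
    intro y hy
    have hy' : (y : ι → F) ∈ U ⊓ U₁ := hy
    refine ⟨hy'.2, ?_⟩
    intro n _
    show ((polB Q hQ).restrict (U ⊔ U₁)) n y = 0
    rw [hBSapp]
    obtain ⟨a, ha, b, hb, hab⟩ := Submodule.mem_sup.mp n.2
    rw [← hab, map_add, LinearMap.add_apply, hiso U hts a ha _ hy'.1,
      hiso U₁ hts₁ b hb _ hy'.2, add_zero]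
  have hYdim : finrank F ↥((U ⊓ U₁).comap (U ⊔ U₁).subtype) = finrank F ↥(U ⊓ U₁) :=
    (Submodule.comapSubtypeEquivOfLe
      ((inf_le_left : U ⊓ U₁ ≤ U).trans (le_sup_left : U ≤ U ⊔ U₁))).finrank_eq
  have hrad : finrank F ↥(U ⊓ U₁) ≤ finrank F ↥(U₁.comap (U ⊔ U₁).subtype ⊓
      ((polB Q hQ).restrict (U ⊔ U₁)).orthogonal ⊤) := by
    rw [← hYdim]
    exact Submodule.finrank_mono hYle
  have hSdim := Submodule.finrank_sup_add_finrank_inf_eq U U₁
  obtain ⟨L, hL⟩ : ∃ L : Submodule F (ι → F), L =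
      (((polB Q hQ).restrict (U ⊔ U₁)).orthogonal (U₁.comap (U ⊔ U₁).subtype)).map
        (U ⊔ U₁).subtype := ⟨_, rfl⟩
  have hLdim : finrank F ↥L = finrank F
      ↥(((polB Q hQ).restrict (U ⊔ U₁)).orthogonal (U₁.comap (U ⊔ U₁).subtype)) := by
    rw [hL]
    exact (Submodule.equivSubtypeMap (U ⊔ U₁) _).finrank_eq.symm
  have hLge : finrank F ↥U ≤ finrank F ↥L := by
    rw [hLdim]
    omega
  have hLmem : ∀ s, s ∈ L ↔ s ∈ U ⊔ U₁ ∧ ∀ x ∈ U₁, polB Q hQ x s = 0 := by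
    intro s
    rw [hL]
    constructor
    · rintro ⟨y, hy, rfl⟩
      refine ⟨y.2, fun x hx => ?_⟩
      exact hy ⟨x, (le_sup_right : U₁ ≤ U ⊔ U₁) hx⟩ hx
    · rintro ⟨hs, h⟩
      refine ⟨⟨s, hs⟩, ?_, rfl⟩
      intro x hx
      exact h x hx
  have hLts : ∀ s ∈ L, Q s = 0 := by
    intro s hs
    obtain ⟨hsS, hs0⟩ := (hLmem s).mp hs
    obtain ⟨a, ha, b, hb, rfl⟩ := Submodule.mem_sup.mp hsS
    have h0 := hs0 b hb
    rw [map_add, hBself b, add_zero] at h0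
    rw [hQadd, hts a ha, hts₁ b hb, hsymm, h0]
    simp
  have hU₁L : U₁ ≤ L := by
    intro x hx
    exact (hLmem x).mpr ⟨(le_sup_right : U₁ ≤ U ⊔ U₁) hx,
      fun y hy => hiso U₁ hts₁ y hy x hx⟩
  have hSW : U ⊔ U₁ ≤ W₁ ⊔ W₂ := sup_le hU (hU₁.trans le_sup_left)
  have hmax : ∀ w ∈ W₁, (∀ x ∈ U₁, polB Q hQ x w = 0) → w ∈ U₁ := by
    intro w hw h
    have hle : 2 * finrank F ↥(U₁ ⊔ Submodule.span F {w}) ≤ finrank F ↥W₁ := by
      apply Cfsg.Agent.Lib.Helper52.OElp.iso_le_half Q hQ W₁ _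
        (sup_le hU₁ (by rw [Submodule.span_singleton_le_iff_mem]; exact hw)) hN1
      intro u hu u' hu'
      obtain ⟨a, ha, b, hb, rfl⟩ := Submodule.mem_sup.mp hu
      obtain ⟨a', ha', b', hb', rfl⟩ := Submodule.mem_sup.mp hu'
      obtain ⟨c, rfl⟩ := Submodule.mem_span_singleton.mp hb
      obtain ⟨c', rfl⟩ := Submodule.mem_span_singleton.mp hb'
      show polB Q hQ (a + c • w) (a' + c' • w) = 0
      simp only [map_add, map_smul, LinearMap.add_apply, LinearMap.smul_apply, smul_eq_mul]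
      rw [hiso U₁ hts₁ a ha a' ha', h a ha, hsymm w a', h a' ha', hBself w]
      ring
    have heq : U₁ = U₁ ⊔ Submodule.span F {w} := by
      apply Submodule.eq_of_le_of_finrank_le le_sup_left
      omega
    rw [heq]
    exact Submodule.mem_sup_right (Submodule.mem_span_singleton_self w)
  have hLle : L ≤ U₁ ⊔ (L ⊓ W₂) := by
    intro s hs
    obtain ⟨hsS, hs0⟩ := (hLmem s).mp hs
    obtain ⟨w₁, hw₁, w₂, hw₂, rfl⟩ := Submodule.mem_sup.mp (hSW hsS)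
    have hw₁U : w₁ ∈ U₁ := by
      apply hmax w₁ hw₁
      intro x hx
      have h := hs0 x hx
      rw [map_add, hBapp x w₂, hP x (hU₁ hx) w₂ hw₂, add_zero] at h
      exact h
    refine Submodule.mem_sup.mpr ⟨w₁, hw₁U, w₂, ⟨?_, hw₂⟩, rfl⟩
    simpa using L.sub_mem hs (hU₁L hw₁U)
  have hfin : finrank F ↥L ≤ finrank F ↥U₁ + finrank F ↥(L ⊓ W₂) :=
    (Submodule.finrank_mono hLle).trans (Submodule.finrank_add_le_finrank_add_finrank _ _)
  obtain ⟨U₂, hU₂, hU₂d⟩ := Cfsg.Agent.Lib.Helper1.OTS.exists_le_finrank_eq (L ⊓ W₂)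
    (finrank F ↥U - finrank F ↥U₁) (by omega)
  refine ⟨U₂, hU₂.trans inf_le_right, fun w hw => hLts w (hU₂ hw).1, ?_⟩
  omega

/-- the embedding `(x, z) ↦ (x, 0, z)` into the coordinates of the minus model -/
def embM (F : Type u) [Field F] (m : ℕ) :
    (Fin m → F) × (Fin 2 → F) →ₗ[F] ((Fin m ⊕ Fin m) ⊕ Fin 2 → F) where
  toFun p := Sum.elim (Sum.elim p.1 0) p.2
  map_add' p q := by
    funext i
    rcases i with (i | i) | i <;> simp
  map_smul' c p := by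
    funext i
    rcases i with (i | i) | i <;> simp

theorem embM_injective (m : ℕ) : Function.Injective (embM F m) := by
  intro p q h
  have h1 : ∀ i, embM F m p i = embM F m q i := fun i => by rw [h]
  apply Prod.ext
  · funext i
    exact h1 (Sum.inl (Sum.inl i))
  · funext k
    exact h1 (Sum.inr k)

theorem quadFormMinus_embM (m : ℕ) (a c : F) (p : (Fin m → F) × (Fin 2 → F)) :
    Cfsg.quadFormMinus m F a c (embM F m p) =
      p.2 0 ^ 2 + a * p.2 0 * p.2 1 + c * p.2 1 ^ 2 := by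
  simp [Cfsg.quadFormMinus, embM]

/-- a space isometric to the plus model is of plus type -/
theorem plus_of_model (Q : (ι → F) → F) (W : Submodule F (ι → F)) (f : ℕ)
    (hf : finrank F W = 2 * f) (φ : ↥W ≃ₗ[F] (Fin f ⊕ Fin f → F))
    (hφ : ∀ v : ↥W, Cfsg.quadFormPlus f F (φ v) = Q v) : Plus Q W := by
  obtain ⟨-, U', -, hts', hd'⟩ := Cfsg.Agent.Lib.Helper52.OElp.pkgPlusQE F f
  have hinj : Function.Injective (W.subtype ∘ₗ φ.symm.toLinearMap) :=
    (Submodule.injective_subtype W).comp φ.symm.injective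
  refine ⟨U'.map (W.subtype ∘ₗ φ.symm.toLinearMap), ?_, ?_, ?_⟩
  · rintro _ ⟨u, -, rfl⟩
    exact (φ.symm u).2
  · rintro _ ⟨u, hu, rfl⟩
    have h := hφ (φ.symm u)
    rw [LinearEquiv.apply_symm_apply] at h
    have h' := hts' u hu
    rw [h] at h'
    exact h'
  · rw [← (Submodule.equivMapOfInjective _ hinj U').finrank_eq, hd', finrank_top, hf]
    simp
    omega

/-- the quadratic form on a nondegenerate `2f`-space over a finite field is the plus model or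
the minus model -/
theorem model_of_nd [Fintype F] (Q : (ι → F) → F)
    (hQ : Cfsg.Geo.IsNondegenerateQuadraticForm Q) (W : Submodule F (ι → F)) (hN : Nd Q W)
    (f : ℕ) (hf : finrank F W = 2 * f) (a c : F) (hac : Cfsg.Agent.Lib.Helper14.OCls.Aniso a c) :
    (∃ φ : ↥W ≃ₗ[F] (Fin f ⊕ Fin f → F), ∀ v : ↥W, Cfsg.quadFormPlus f F (φ v) = Q v) ∨
    (∃ m' : ℕ, f = m' + 1 ∧ ∃ φ : ↥W ≃ₗ[F] ((Fin m' ⊕ Fin m') ⊕ Fin 2 → F),
      ∀ v : ↥W, Cfsg.quadFormMinus m' F a c (φ v) = Q v) := by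
  obtain ⟨Q', hQ'⟩ : ∃ Q' : QuadraticForm F (ι → F), ∀ v, Q' v = Q v :=
    ⟨QuadraticMap.ofPolar Q (fun a x => by rw [hQ.smul, smul_eq_mul, pow_two])
      (fun x x' y => hQ.polar_bilinear.add_left x x' y)
      (fun a x y => by rw [hQ.polar_bilinear.smul_left, smul_eq_mul]), fun v => rfl⟩
  have hpol : ∀ x y : ↥W, QuadraticMap.polarBilin (Q'.comp W.subtype) x y =
      QuadraticMap.polar Q (x : ι → F) y := by
    intro x y
    simp [QuadraticMap.polar, hQ']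
  have hnd : (QuadraticMap.polarBilin (Q'.comp W.subtype)).Nondegenerate := by
    refine ⟨fun x hx => ?_, fun y hy => ?_⟩
    · by_contra hx0
      have hx0' : (x : ι → F) ≠ 0 := fun h => hx0 (Subtype.ext h)
      obtain ⟨-, z, hz, hzx⟩ := hN x x.2 hx0'
      have h := hx ⟨z, hz⟩
      rw [hpol] at h
      exact hzx h
    · by_contra hy0
      have hy0' : (y : ι → F) ≠ 0 := fun h => hy0 (Subtype.ext h)
      obtain ⟨⟨z, hz, hzy⟩, -⟩ := hN y y.2 hy0'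
      have h := hy ⟨z, hz⟩
      rw [hpol] at h
      exact hzy h
  have hcl := Cfsg.Agent.Lib.Helper76.OCls.pkgClassEven Cfsg.Agent.Lib.Helper85.OCls.pkgSing
    Cfsg.Agent.Lib.Helper76.OCls.pkgSplit Cfsg.Agent.Lib.Helper8.OCls.pkgAnisoUnique
    (Q'.comp W.subtype) hnd f hf a c hac
  rcases hcl with ⟨φ, hφ⟩ | ⟨m', hm', φ, hφ⟩
  · left
    refine ⟨φ, fun v => ?_⟩
    rw [hφ v]
    exact hQ' v
  · right
    refine ⟨m', hm', φ, fun v => ?_⟩
    rw [hφ v]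
    exact hQ' v

/-- characteristic two, finite field: the sum of two minus-type spaces is of plus type -/
theorem plus_sup_of_not [Fintype F] (Q : (ι → F) → F)
    (hQ : Cfsg.Geo.IsNondegenerateQuadraticForm Q) (h2 : (2 : F) = 0)
    (W₁ W₂ : Submodule F (ι → F)) (hN1 : Nd Q W₁) (hN2 : Nd Q W₂) (hP : Perp Q W₁ W₂)
    (hdisj : Disjoint W₁ W₂) (f₁ f₂ : ℕ) (hf₁ : finrank F W₁ = 2 * f₁)
    (hf₂ : finrank F W₂ = 2 * f₂) (h1 : ¬ Plus Q W₁) (h2' : ¬ Plus Q W₂) :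
    Plus Q (W₁ ⊔ W₂) := by
  classical
  obtain ⟨a, c, hac⟩ := Cfsg.Agent.Lib.Helper85.OCls.pkgAniso (F := F)
  rcases model_of_nd Q hQ W₁ hN1 f₁ hf₁ a c hac with ⟨φ, hφ⟩ | ⟨m₁, rfl, φ₁, hφ₁⟩
  · exact absurd (plus_of_model Q W₁ f₁ hf₁ φ hφ) h1
  rcases model_of_nd Q hQ W₂ hN2 f₂ hf₂ a c hac with ⟨φ, hφ⟩ | ⟨m₂, rfl, φ₂, hφ₂⟩
  · exact absurd (plus_of_model Q W₂ f₂ hf₂ φ hφ) h2'
  have hdim : finrank F ↥(W₁ ⊔ W₂) = finrank F W₁ + finrank F W₂ := by
    have h := Submodule.finrank_sup_add_finrank_inf_eq W₁ W₂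
    rw [disjoint_iff.mp hdisj, finrank_bot] at h
    omega
  obtain ⟨T₁, hT₁⟩ : ∃ T₁ : (Fin m₁ → F) × (Fin 2 → F) →ₗ[F] (ι → F),
      ∀ p, T₁ p = (φ₁.symm (embM F m₁ p) : ι → F) :=
    ⟨W₁.subtype ∘ₗ φ₁.symm.toLinearMap ∘ₗ embM F m₁, fun p => rfl⟩
  obtain ⟨T₂, hT₂⟩ : ∃ T₂ : (Fin m₂ → F) × (Fin 2 → F) →ₗ[F] (ι → F),
      ∀ p, T₂ p = (φ₂.symm (embM F m₂ p) : ι → F) :=
    ⟨W₂.subtype ∘ₗ φ₂.symm.toLinearMap ∘ₗ embM F m₂, fun p => rfl⟩
  have hT₁W : ∀ p, T₁ p ∈ W₁ := fun p => by rw [hT₁]; exact (φ₁.symm _).2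
  have hT₂W : ∀ p, T₂ p ∈ W₂ := fun p => by rw [hT₂]; exact (φ₂.symm _).2
  have hT₁Q : ∀ p, Q (T₁ p) = p.2 0 ^ 2 + a * p.2 0 * p.2 1 + c * p.2 1 ^ 2 := by
    intro p
    rw [hT₁, ← hφ₁, LinearEquiv.apply_symm_apply, quadFormMinus_embM]
  have hT₂Q : ∀ p, Q (T₂ p) = p.2 0 ^ 2 + a * p.2 0 * p.2 1 + c * p.2 1 ^ 2 := by
    intro p
    rw [hT₂, ← hφ₂, LinearEquiv.apply_symm_apply, quadFormMinus_embM]
  have hT₁inj : ∀ p, T₁ p = 0 → p = 0 := by
    intro p hp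
    rw [hT₁] at hp
    have h3 : φ₁.symm (embM F m₁ p) = 0 := Subtype.ext hp
    have h4 : embM F m₁ p = 0 := by
      have := congrArg φ₁ h3
      rwa [LinearEquiv.apply_symm_apply, map_zero] at this
    exact embM_injective m₁ (by rw [h4, map_zero])
  have hT₂inj : ∀ p, T₂ p = 0 → p = 0 := by
    intro p hp
    rw [hT₂] at hp
    have h3 : φ₂.symm (embM F m₂ p) = 0 := Subtype.ext hp
    have h4 : embM F m₂ p = 0 := by
      have := congrArg φ₂ h3
      rwa [LinearEquiv.apply_symm_apply, map_zero] at this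
    exact embM_injective m₂ (by rw [h4, map_zero])
  obtain ⟨T, hT⟩ : ∃ T : (Fin m₁ → F) × (Fin m₂ → F) × (Fin 2 → F) →ₗ[F] (ι → F),
      ∀ p, T p = T₁ (p.1, p.2.2) + T₂ (p.2.1, p.2.2) :=
    ⟨T₁ ∘ₗ ((LinearMap.fst F _ _).prod ((LinearMap.snd F _ _) ∘ₗ (LinearMap.snd F _ _))) +
      T₂ ∘ₗ (LinearMap.snd F _ _), fun p => rfl⟩
  have hTinj : Function.Injective T := by
    rw [← LinearMap.ker_eq_bot, LinearMap.ker_eq_bot']
    intro p hp
    rw [hT] at hp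
    have h1 : T₁ (p.1, p.2.2) ∈ W₁ ⊓ W₂ := by
      refine ⟨hT₁W _, ?_⟩
      have : T₁ (p.1, p.2.2) = -T₂ (p.2.1, p.2.2) := eq_neg_of_add_eq_zero_left hp
      rw [this]
      exact W₂.neg_mem (hT₂W _)
    rw [disjoint_iff.mp hdisj, Submodule.mem_bot] at h1
    have h2 : T₂ (p.2.1, p.2.2) = 0 := by
      rw [h1, zero_add] at hp
      exact hp
    have h3 := hT₁inj _ h1
    have h4 := hT₂inj _ h2
    have h5 : p.1 = 0 := congrArg Prod.fst h3
    have h6 : p.2.2 = 0 := congrArg Prod.snd h3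
    have h7 : p.2.1 = 0 := congrArg Prod.fst h4
    exact Prod.ext h5 (Prod.ext h7 h6)
  refine ⟨LinearMap.range T, ?_, ?_, ?_⟩
  · rintro _ ⟨p, rfl⟩
    rw [hT]
    exact Submodule.add_mem _ (Submodule.mem_sup_left (hT₁W _)) (Submodule.mem_sup_right (hT₂W _))
  · rintro _ ⟨p, rfl⟩
    have hpol := hP _ (hT₁W (p.1, p.2.2)) _ (hT₂W (p.2.1, p.2.2))
    unfold QuadraticMap.polar at hpol
    rw [hT₁Q, hT₂Q] at hpol
    rw [hT]
    have h22 : ∀ t : F, t + t = 0 := fun t => by rw [← two_mul, h2, zero_mul]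
    have := h22 (p.2.2 0 ^ 2 + a * p.2.2 0 * p.2.2 1 + c * p.2.2 1 ^ 2)
    linear_combination hpol + this
  · rw [LinearMap.finrank_range_of_inj hTinj, hdim, hf₁, hf₂]
    simp
    omega

end

/-- [SUME] -/
theorem pkgSumE : PkgSumE.{u} := by
  intro F _ _ ι _ _ Q hQ W₁ W₂ hN1 hN2 hP
  by_cases h2 : (2 : F) = 0
  swap
  · exact Cfsg.Agent.Lib.Helper1.OHyp.pkgSum F ι Q hQ h2 W₁ W₂ hN1 hN2 hP
  classical
  have hpc : ∀ a b : ι → F, QuadraticMap.polar Q a b = QuadraticMap.polar Q b a :=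
    QuadraticMap.polar_comm Q
  have hdisj : Disjoint W₁ W₂ := by
    rw [Submodule.disjoint_def]
    intro w h1 h2'
    by_contra hw
    obtain ⟨⟨x, hx, hxw⟩, -⟩ := hN1 w h1 hw
    exact hxw (hP x hx w h2')
  have hNd : Nd Q (W₁ ⊔ W₂) := by
    intro w hw hw0
    obtain ⟨w₁, hw₁, w₂, hw₂, rfl⟩ := Submodule.mem_sup.mp hw
    by_cases h1 : w₁ = 0
    · have h20 : w₂ ≠ 0 := by
        rintro rfl
        apply hw0
        rw [h1]
        simp
      obtain ⟨⟨x, hx, hxw⟩, -⟩ := hN2 w₂ hw₂ h20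
      have key : QuadraticMap.polar Q x (w₁ + w₂) ≠ 0 := by
        rw [hQ.polar_bilinear.add_right, hpc x w₁, hP w₁ hw₁ x hx, zero_add]
        exact hxw
      exact ⟨⟨x, Submodule.mem_sup_right hx, key⟩,
        ⟨x, Submodule.mem_sup_right hx, by rw [hpc]; exact key⟩⟩
    · obtain ⟨⟨x, hx, hxw⟩, -⟩ := hN1 w₁ hw₁ h1
      have key : QuadraticMap.polar Q x (w₁ + w₂) ≠ 0 := by
        rw [hQ.polar_bilinear.add_right, hP x hx w₂ hw₂, add_zero]
        exact hxw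
      exact ⟨⟨x, Submodule.mem_sup_left hx, key⟩,
        ⟨x, Submodule.mem_sup_left hx, by rw [hpc]; exact key⟩⟩
  have hdim : finrank F ↥(W₁ ⊔ W₂) = finrank F W₁ + finrank F W₂ := by
    have h := Submodule.finrank_sup_add_finrank_inf_eq W₁ W₂
    rw [disjoint_iff.mp hdisj, finrank_bot] at h
    omega
  refine ⟨hNd, hdim, ?_⟩
  rintro ⟨f₁, hf₁⟩ ⟨f₂, hf₂⟩
  have hP' : Perp Q W₂ W₁ := fun u hu v hv => by rw [hpc]; exact hP v hv u hu
  constructor
  · intro h12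
    constructor
    · intro h1
      exact plus_right_of_sup Q hQ h2 W₁ W₂ hN1 hP hdisj h1 h12
    · intro h2'
      exact plus_right_of_sup Q hQ h2 W₂ W₁ hN2 hP' hdisj.symm h2' (by rw [sup_comm]; exact h12)
  · intro hiff
    by_cases h1 : Plus Q W₁
    · exact plus_sup Q W₁ W₂ hP hdisj h1 (hiff.mp h1)
    · exact plus_sup_of_not Q hQ h2 W₁ W₂ hN1 hN2 hP hdisj f₁ f₂ (by omega) (by omega) h1
        (fun h => h1 (hiff.mpr h))

end Cfsg.Agent.Lib.Helper1.OElp
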